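import Mathlib
import Cfsg.Agent.H906.E6.SixC
import Cfsg.Agent.H905.E6T.Base

/-!
# S5927, S5928, `p = 2`, three-fold cover of `A₆`: Klein bases of stable subspaces of dimension three (helper401)
-/

set_option autoImplicit false
set_option linter.unusedSectionVars false

namespace Cfsg.Agent.H401.SixA

open Module Equiv
open Cfsg.Agent.H906.E6.Hexa (A6 mk tx ty Ext XY rho_mul rho_one rho_inj)

section kl

variable {F : Type*} [Field F] [CharP F 2] {E : Type*} [AddCommGroup E] [Module F E]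

/-- transvections -/
structure Rk (T : E →ₗ[F] E) (a : E) (l : E →ₗ[F] F) : Prop where
  ap : ∀ x, T x = x + l x • a
  ne : a ≠ 0
  la : l a = 0
  u : ∃ u, l u = 1

theorem exists_rk [Module.Finite F E] (h3 : finrank F E = 3) (T : E →ₗ[F] E) (hT : ∀ x, T (T x) = x)
    (hn : ∃ x, T x ≠ x) : ∃ a l, Rk T a l := by
  obtain ⟨u, hu⟩ := hn
  have h2 : (2 : F) = 0 := CharTwo.two_eq_zero
  let A : E →ₗ[F] E := T - LinearMap.id
  have hA : ∀ x, A x = T x - x := fun x => rfl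
  have hAA : ∀ x, A (A x) = 0 := by
    intro x
    rw [hA, hA, map_sub, hT]
    have : x - T x - (T x - x) = (2 : F) • (x - T x) := by rw [two_smul]; abel
    rw [this, h2, zero_smul]
  have h1 : LinearMap.range A ≤ LinearMap.ker A := by
    rintro _ ⟨x, rfl⟩
    exact hAA x
  have h4 := LinearMap.finrank_range_add_finrank_ker A
  have h5 := Submodule.finrank_mono h1
  have h6 : finrank F (LinearMap.range A) ≤ 1 := by omega
  have ha : A u ≠ 0 := by rw [hA]; exact sub_ne_zero.2 hu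
  obtain ⟨g, hg⟩ : ∃ g : Dual F E, g (A u) ≠ 0 := by
    by_contra hcon
    push Not at hcon
    exact ha ((Module.forall_dual_apply_eq_zero_iff F _).1 hcon)
  have h7 : ∀ x, ∃ c : F, A x = c • A u := by
    intro x
    obtain ⟨v, hv⟩ := finrank_le_one_iff.1 h6
    obtain ⟨c, hc⟩ := hv ⟨A x, x, rfl⟩
    obtain ⟨d, hd⟩ := hv ⟨A u, u, rfl⟩
    have hc' : c • (v : E) = A x := congrArg Subtype.val hc
    have hd' : d • (v : E) = A u := congrArg Subtype.val hd
    have hd0 : d ≠ 0 := by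
      rintro rfl
      rw [zero_smul] at hd'
      exact ha hd'.symm
    refine ⟨c * d⁻¹, ?_⟩
    rw [← hd', ← hc', smul_smul, mul_assoc, inv_mul_cancel₀ hd0, mul_one]
  have h8 : ∀ x, A x = ((g (A u))⁻¹ * g (A x)) • A u := by
    intro x
    obtain ⟨c, hc⟩ := h7 x
    rw [hc, map_smul, smul_eq_mul, mul_comm c, ← mul_assoc, inv_mul_cancel₀ hg, one_mul]
  refine ⟨A u, (g (A u))⁻¹ • (g.comp A), ⟨fun x => ?_, ha, ?_, u, ?_⟩⟩
  · rw [LinearMap.smul_apply, LinearMap.comp_apply, smul_eq_mul, ← h8, hA]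
    abel
  · rw [LinearMap.smul_apply, LinearMap.comp_apply, hAA, map_zero, smul_zero]
  · rw [LinearMap.smul_apply, LinearMap.comp_apply, smul_eq_mul, inv_mul_cancel₀ hg]

theorem Rk.comm {T Z : E →ₗ[F] E} {a az : E} {l lz : E →ₗ[F] F} (h : Rk T a l) (hz : Rk Z az lz)
    (hc : ∀ x, T (Z x) = Z (T x)) : l az = 0 ∧ lz a = 0 := by
  have h1 : ∀ x, (lz x * l az) • a = (l x * lz a) • az := by
    intro x
    have h2 := hc x
    rw [hz.ap, h.ap, h.ap x, hz.ap, map_add, map_add, map_smul, map_smul, smul_eq_mul, smul_eq_mul, add_smul, add_smul]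
      at h2
    have h3 : x + lz x • az + (l x • a + (lz x * l az) • a) = x + l x • a + (lz x • az + (lz x * l az) • a) := by abel
    rw [h3] at h2
    exact add_left_cancel (add_left_cancel h2)
  have h4 : l az * lz a = 0 := by
    have h5 := h1 az
    rw [hz.la, zero_mul, zero_smul] at h5
    exact (smul_eq_zero.1 h5.symm).resolve_right hz.ne
  obtain ⟨u, hu⟩ := h.u
  obtain ⟨uz, huz⟩ := hz.u
  rcases mul_eq_zero.1 h4 with h5 | h5
  · refine ⟨h5, ?_⟩
    have h6 := h1 u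
    rw [h5, mul_zero, zero_smul, hu, one_mul] at h6
    exact (smul_eq_zero.1 h6.symm).resolve_right hz.ne
  · refine ⟨?_, h5⟩
    have h6 := h1 uz
    rw [h5, mul_zero, zero_smul, huz, one_mul] at h6
    exact (smul_eq_zero.1 h6).resolve_right h.ne

theorem Rk.par {T Z : E →ₗ[F] E} {a az a3 : E} {l lz l3 : E →ₗ[F] F} (h : Rk T a l) (hz : Rk Z az lz)
    (h3 : Rk (T.comp Z) a3 l3) (hc : ∀ x, T (Z x) = Z (T x)) :
    (∃ c : F, a = c • az) ∨ ∀ x, lz x = 0 → l x = 0 := by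
  obtain ⟨h4, h5⟩ := h.comm hz hc
  have h6 : ∀ x, lz x • az + l x • a = l3 x • a3 := by
    intro x
    have h7 := h3.ap x
    rw [LinearMap.comp_apply, hz.ap, h.ap, map_add, map_smul, h4, smul_zero, add_zero, add_assoc] at h7
    exact add_left_cancel h7
  by_cases h8 : ∀ x, lz x = 0 → l x = 0
  · exact Or.inr h8
  · left
    push Not at h8
    obtain ⟨x, hx, hx'⟩ := h8
    obtain ⟨u, hu⟩ := hz.u
    have h9 := h6 x
    rw [hx, zero_smul, zero_add] at h9
    have h10 : l3 x ≠ 0 := by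
      intro h0
      rw [h0, zero_smul] at h9
      exact hx' ((smul_eq_zero.1 h9).resolve_right h.ne)
    -- `a3 = (l x / l3 x) a`
    have h11 : a3 = ((l3 x)⁻¹ * l x) • a := by rw [mul_smul, h9, smul_smul, inv_mul_cancel₀ h10, one_smul]
    have h12 := h6 u
    rw [hu, one_smul, h11, smul_smul] at h12
    have h13 : az = (l3 u * ((l3 x)⁻¹ * l x) - l u) • a := by
      rw [sub_smul, ← h12]
      abel
    have h14 : l3 u * ((l3 x)⁻¹ * l x) - l u ≠ 0 := by
      intro h0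
      rw [h0, zero_smul] at h13
      exact hz.ne h13
    refine ⟨(l3 u * ((l3 x)⁻¹ * l x) - l u)⁻¹, ?_⟩
    conv_rhs => rw [h13]
    rw [smul_smul, inv_mul_cancel₀ h14, one_smul]

/-- a basis adapted to a Klein group with a common centre -/
theorem Rk.basis [Module.Finite F E] (h3 : finrank F E = 3) {T Z : E →ₗ[F] E} {a az : E} {l lz : E →ₗ[F] F}
    (h : Rk T a l) (hz : Rk Z az lz) (hc : ∀ x, T (Z x) = Z (T x)) {c : F} (hac : a = c • az)
    (hn : ¬ ∀ x, lz x = 0 → l x = 0) :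
    ∃ a e f : E, a ≠ 0 ∧ (∀ x, ∃ α β γ : F, x = α • a + β • e + γ • f) ∧ Z a = a ∧ Z e = e + a ∧ Z f = f ∧
      T a = a ∧ T e = e ∧ T f = f + a := by
  obtain ⟨h4, h5⟩ := h.comm hz hc
  push Not at hn
  obtain ⟨x, hx, hx'⟩ := hn
  obtain ⟨u, hu⟩ := hz.u
  have hc0 : c ≠ 0 := by
    rintro rfl
    rw [zero_smul] at hac
    exact h.ne hac
  have hT : ∀ y, T y = y + (c * l y) • az := by
    intro y
    rw [h.ap, hac, smul_smul, mul_comm]
  obtain ⟨f, hf⟩ : ∃ f : E, f = (c * l x)⁻¹ • x := ⟨_, rfl⟩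
  have hcx : c * l x ≠ 0 := mul_ne_zero hc0 hx'
  have f1 : lz f = 0 := by rw [hf, map_smul, hx, smul_zero]
  have f2 : c * l f = 1 := by
    rw [hf, map_smul, smul_eq_mul]
    field_simp
  obtain ⟨e, he⟩ : ∃ e : E, e = u - (c * l u) • f := ⟨_, rfl⟩
  have e1 : lz e = 1 := by rw [he, map_sub, map_smul, f1, smul_zero, sub_zero, hu]
  have e2 : c * l e = 0 := by
    rw [he, map_sub, map_smul, smul_eq_mul, mul_sub]
    linear_combination (-(c * l u)) * f2
  refine ⟨az, e, f, hz.ne, ?_, ?_, ?_, ?_, ?_, ?_, ?_⟩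
  · have hli : LinearIndependent F ![az, e, f] := by
      rw [Fintype.linearIndependent_iff]
      intro g hg
      rw [Fin.sum_univ_three] at hg
      simp only [Matrix.cons_val_zero, Matrix.cons_val_one, Matrix.cons_val] at hg
      have k1 := congrArg lz hg
      rw [map_add, map_add, map_smul, map_smul, map_smul, hz.la, e1, f1, map_zero, smul_zero, smul_zero, add_zero, zero_add,
        smul_eq_mul, mul_one] at k1
      have k2 := congrArg l hg
      rw [map_add, map_add, map_smul, map_smul, map_smul, h4, k1, map_zero, smul_zero, zero_smul, add_zero, zero_add,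
        smul_eq_mul] at k2
      have k3 : g 2 = 0 := by
        have : g 2 = g 2 * (c * l f) := by rw [f2, mul_one]
        rw [this]
        linear_combination c * k2
      rw [k1, k3, zero_smul, zero_smul, add_zero, add_zero] at hg
      have k0 := (smul_eq_zero.1 hg).resolve_right hz.ne
      intro i
      fin_cases i
      · exact k0
      · exact k1
      · exact k3
    have hsp := hli.span_eq_top_of_card_eq_finrank (by rw [h3]; rfl)
    intro x
    have hx : x ∈ Submodule.span F (Set.range ![az, e, f]) := by rw [hsp]; exact Submodule.mem_top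
    obtain ⟨g, hg⟩ := (Submodule.mem_span_range_iff_exists_fun F).1 hx
    rw [Fin.sum_univ_three] at hg
    exact ⟨g 0, g 1, g 2, hg.symm⟩
  · rw [hz.ap, hz.la, zero_smul, add_zero]
  · rw [hz.ap, e1, one_smul]
  · rw [hz.ap, f1, zero_smul, add_zero]
  · rw [hT, h4, mul_zero, zero_smul, add_zero]
  · rw [hT, e2, zero_smul, add_zero]
  · rw [hT, f2, one_smul]

theorem klein [Module.Finite F E] (h3 : finrank F E = 3) (Z T1 T2 : E →ₗ[F] E) (hZ : ∀ x, Z (Z x) = x)
    (h1 : ∀ x, T1 (T1 x) = x) (h2 : ∀ x, T2 (T2 x) = x) (hc1 : ∀ x, T1 (Z x) = Z (T1 x)) (hc2 : ∀ x, T2 (Z x) = Z (T2 x))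
    (nZ : ∃ x, Z x ≠ x) (n1 : ∃ x, T1 x ≠ x) (n2 : ∃ x, T2 x ≠ x) (n1z : ∃ x, T1 (Z x) ≠ x) (n2z : ∃ x, T2 (Z x) ≠ x)
    (h12 : ∃ x, T1 (T2 x) ≠ T2 (T1 x)) :
    ∃ a e f : E, a ≠ 0 ∧ (∀ x, ∃ α β γ : F, x = α • a + β • e + γ • f) ∧ Z a = a ∧ Z e = e + a ∧ Z f = f ∧
      ((T1 a = a ∧ T1 e = e ∧ T1 f = f + a) ∨ (T2 a = a ∧ T2 e = e ∧ T2 f = f + a)) := by
  obtain ⟨az, lz, rz⟩ := exists_rk h3 Z hZ nZ
  obtain ⟨a1, l1, r1⟩ := exists_rk h3 T1 h1 n1
  obtain ⟨a2, l2, r2⟩ := exists_rk h3 T2 h2 n2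
  obtain ⟨a3, l3, r3⟩ := exists_rk h3 (T1.comp Z) (fun x => by
    rw [LinearMap.comp_apply, LinearMap.comp_apply, ← hc1, hZ, h1]) n1z
  obtain ⟨a4, l4, r4⟩ := exists_rk h3 (T2.comp Z) (fun x => by
    rw [LinearMap.comp_apply, LinearMap.comp_apply, ← hc2, hZ, h2]) n2z
  have c1 := r1.comm rz hc1
  have c2 := r2.comm rz hc2
  have p1 := r1.par rz r3 hc1
  have p2 := r2.par rz r4 hc2
  by_cases q1 : ∀ x, lz x = 0 → l1 x = 0
  · by_cases q2 : ∀ x, lz x = 0 → l2 x = 0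
    · exfalso
      obtain ⟨x, hx⟩ := h12
      apply hx
      rw [r2.ap, r1.ap, r1.ap x, r2.ap, map_add, map_add, map_smul, map_smul, q1 _ c2.2, q2 _ c1.2, smul_zero, smul_zero,
        add_zero, add_zero]
      abel
    · obtain ⟨c, hc⟩ := p2.resolve_right q2
      obtain ⟨a, e, f, h4, h5, h6, h7, h8, h9, h10, h11⟩ := r2.basis h3 rz hc2 hc q2
      exact ⟨a, e, f, h4, h5, h6, h7, h8, Or.inr ⟨h9, h10, h11⟩⟩
  · obtain ⟨c, hc⟩ := p1.resolve_right q1
    obtain ⟨a, e, f, h4, h5, h6, h7, h8, h9, h10, h11⟩ := r1.basis h3 rz hc1 hc q1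
    exact ⟨a, e, f, h4, h5, h6, h7, h8, Or.inl ⟨h9, h10, h11⟩⟩

end kl

end Cfsg.Agent.H401.SixA
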